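import Mathlib
import Cfsg.Agent.Lib.Helper55.OOG.Defs
import Cfsg.Agent.Lib.Helper14.Isom

/-!
# OOG (S2413) package [EXIST]: every Siegel transformation `ρ_{u,w}` (`u` singular, `w ⊥ u`)
exists as an isometry.
-/

set_option autoImplicit false
open scoped Matrix

namespace Cfsg.Agent.Lib.Helper34.OOG

open Cfsg.Agent.Lib.Helper55.OOG

universe u

variable {m : ℕ} {F : Type u} [Field F]

/-- The linear map `v ↦ v + B(v,u) w - (B(v,w) + Q(w) B(v,u)) u`. -/
noncomputable def siegLin (u w : Vec m F) : Vec m F →ₗ[F] Vec m F where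
  toFun v := v + B v u • w - (B v w + QF m F w * B v u) • u
  map_add' v v' := by
    simp only [B_add_left]
    module
  map_smul' c v := by
    simp only [B_smul_left, RingHom.id_apply]
    module

theorem siegLin_apply (u w v : Vec m F) :
    siegLin u w v = v + B v u • w - (B v w + QF m F w * B v u) • u := rfl

/-- `B (ρ_{u,w} v) x`. -/
theorem B_siegLin (u w v x : Vec m F) :
    B (siegLin u w v) x = B v x + B v u * B w x - (B v w + QF m F w * B v u) * B u x := by
  rw [siegLin_apply, B_sub_left, B_add_left, B_smul_left, B_smul_left]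

theorem siegLin_comp (u w w' : Vec m F) (hu : QF m F u = 0) (huw : B u w = 0) (huw' : B u w' = 0)
    (v : Vec m F) : siegLin u w (siegLin u w' v) = siegLin u (w + w') v := by
  have huu : B u u = 0 := by rw [B_self, hu, mul_zero]
  have h1 : B (siegLin u w' v) u = B v u := by
    rw [B_siegLin, huu, B_comm w' u, huw']
    ring
  have h2 : B (siegLin u w' v) w = B v w + B v u * B w w' := by
    rw [B_siegLin, huw, B_comm w' w]
    ring
  rw [siegLin_apply u w, h1, h2, siegLin_apply u w', siegLin_apply u (w + w'), B_add_right, Q_add]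
  module

theorem siegLin_zero (u v : Vec m F) : siegLin u 0 v = v := by
  rw [siegLin_apply, B_zero_right, Q_zero]
  module

theorem Q_siegLin (u w : Vec m F) (hu : QF m F u = 0) (huw : B u w = 0) (v : Vec m F) :
    QF m F (siegLin u w v) = QF m F v := by
  have hwu : B w u = 0 := by rw [B_comm]; exact huw
  rw [siegLin_apply, sub_eq_add_neg, ← neg_smul, Q_add, Q_add, Q_smul, Q_smul, B_smul_right,
    B_add_left, B_smul_right, B_smul_left, B_smul_right, hu, hwu]
  ring

/-- The matrix of `ρ_{u,w}`. -/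
noncomputable def siegMat (u w : Vec m F) :
    Matrix (Unit ⊕ (Fin m ⊕ Fin m)) (Unit ⊕ (Fin m ⊕ Fin m)) F :=
  LinearMap.toMatrix' (siegLin u w)

theorem siegMat_mulVec (u w v : Vec m F) : siegMat u w *ᵥ v = siegLin u w v := by
  rw [← Matrix.toLin'_apply, siegMat, Matrix.toLin'_toMatrix']

theorem siegMat_mul (u w w' : Vec m F) (hu : QF m F u = 0) (huw : B u w = 0) (huw' : B u w' = 0) :
    siegMat u w * siegMat u w' = siegMat u (w + w') := by
  unfold siegMat
  rw [← LinearMap.toMatrix'_comp]
  congr 1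
  apply LinearMap.ext
  intro v
  exact siegLin_comp u w w' hu huw huw' v

theorem siegMat_zero (u : Vec m F) : siegMat u 0 = 1 := by
  unfold siegMat
  rw [← LinearMap.toMatrix'_id]
  congr 1
  apply LinearMap.ext
  intro v
  exact siegLin_zero u v

/-- **[EXIST]** -/
theorem pkgExist : PkgExist.{u} := by
  intro m F _ u w hu huw
  have huw' : B u (-w) = 0 := by rw [B_neg_right, huw, neg_zero]
  have h1 : siegMat u w * siegMat u (-w) = 1 := by
    rw [siegMat_mul u w (-w) hu huw huw', add_neg_cancel, siegMat_zero]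
  have h2 : siegMat u (-w) * siegMat u w = 1 := by
    rw [siegMat_mul u (-w) w hu huw' huw, neg_add_cancel, siegMat_zero]
  let g : Matrix.GeneralLinearGroup (Unit ⊕ (Fin m ⊕ Fin m)) F :=
    ⟨siegMat u w, siegMat u (-w), h1, h2⟩
  have hg : g ∈ Iso m F := by
    rw [Cfsg.Agent.Lib.Helper14.mem_isometryGroup_iff]
    intro x
    show Cfsg.quadFormOdd m F (siegMat u w *ᵥ x) = Cfsg.quadFormOdd m F x
    rw [siegMat_mulVec]
    exact Q_siegLin u w hu huw x
  refine ⟨⟨g, hg⟩, ?_⟩
  intro v
  show siegMat u w *ᵥ v = _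
  rw [siegMat_mulVec, siegLin_apply]

end Cfsg.Agent.Lib.Helper34.OOG
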